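import Mathlib
import Cfsg.Prelude.Def_BlockLocal
import Cfsg.Prelude.Def_BrauerPairs
import Cfsg.Agent.Lib.Helper16.Transport2
import Cfsg.Agent.Lib.Helper35.BlockKnorr
import Cfsg.Agent.Lib.Helper35.BlockFong
import Cfsg.Agent.Lib.Helper35.BlockNormal2

/-!
# Tools for covering blocks (helper16)
-/

set_option autoImplicit false

namespace Cfsg.Agent.Lib.Helper16

open Cfsg Cfsg.Agent.Lib.Helper78 Cfsg.Agent.Lib.Helper35 Cfsg.Agent.Lib.Helper15

section

variable {G : Type*} [Group G] [Fintype G] (N : Subgroup G) [hN : N.Normal]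

omit [Fintype G] in
theorem isConjCharOf_iff (g : G) (χ χ' : N → ℂ) :
    IsConjCharOf N g χ χ' ↔ χ' = Cfsg.Agent.Lib.Helper15.cj N g⁻¹ χ := by
  constructor
  · intro h
    funext k
    rw [cj_apply]
    refine h ⟨g⁻¹ * k * g⁻¹⁻¹, hN.conj_mem k k.2 g⁻¹⟩ k ?_
    simp [mul_assoc]
  · rintro rfl k k' hk
    rw [cj_apply]
    congr 1
    apply Subtype.ext
    simp [hk, mul_assoc]

theorem cjIrr_inv_mem_of_stabilizes {c : Set (IrrCharacter N)} {g : G}
    (h : StabilizesBlock N c g) {θ : IrrCharacter N} (hθ : θ ∈ c) : cjIrr N g⁻¹ θ ∈ c := by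
  obtain ⟨χ', hχ', h1⟩ := h.2 θ hθ
  rw [isConjCharOf_iff] at h1
  have : cjIrr N g⁻¹ θ = χ' := Subtype.ext h1.symm
  rw [this]; exact hχ'

theorem cjIrr_mem_of_stabilizes {c : Set (IrrCharacter N)}
    (h : ∀ g : G, StabilizesBlock N c g) (g : G) {θ : IrrCharacter N} (hθ : θ ∈ c) :
    cjIrr N g θ ∈ c := by
  have := cjIrr_inv_mem_of_stabilizes N (h g⁻¹) hθ
  rwa [inv_inv] at this

omit [Fintype G] hN in
theorem subgroupBlockCoeff_eq_extendByZero (c : Set (IrrCharacter N)) :
    subgroupBlockCoeff N c = extendByZero N (blockCoeff c) := by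
  classical
  funext g
  unfold subgroupBlockCoeff
  by_cases hg : g ∈ N
  · rw [dif_pos hg, extendByZero_mem N _ hg]
  · rw [dif_neg hg, extendByZero_not_mem N _ hg]

omit hN in
theorem set_eq_of_blockCoeff_eq {A A' : Set (IrrCharacter G)} (h : blockCoeff A = blockCoeff A') :
    A = A' := by
  classical
  ext χ
  have h1 := omega_blockCoeff A χ
  rw [h, omega_blockCoeff] at h1
  by_cases h2 : χ ∈ A <;> by_cases h3 : χ ∈ A' <;> simp_all

variable {M : Ideal AlgInt}

/-- if `B` is the only block covering `b` then `B` consists of the characters over `b` -/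
theorem overSet_eq_of_unique [Fintype N] (hM : M.IsPrime) {b : Set (IrrCharacter N)}
    (hb : IsPBlock M b) {B : Set (IrrCharacter G)} (hB : IsPBlock M B) (hc : Covers N B b)
    (hu : ∀ B' : Set (IrrCharacter G), IsPBlock M B' → Covers N B' b → B' = B) :
    overSet N b = B := by
  ext χ
  constructor
  · intro h
    rw [← hu _ ⟨χ, rfl⟩ (covers_blockOf_of_mem_overSet N hM h)]
    exact Cfsg.Agent.Lib.Helper78.mem_blockOf_self hM χ
  · intro h
    exact mem_overSet_of_covers N hM hb hB hc h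

end

end Cfsg.Agent.Lib.Helper16
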