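import Mathlib
import Cfsg.Agent.Lib.Helper16.Transport
import Cfsg.Agent.Lib.Helper35.BlockNormal3

/-!
# The extended first main theorem (helper16)
-/

set_option autoImplicit false

namespace Cfsg.Agent.Lib.Helper16

open Cfsg Cfsg.Agent.Lib.Helper78 Cfsg.Agent.Lib.Helper35 Cfsg.Agent.Lib.Helper15

variable {G : Type*} [Group G] [Fintype G]
variable (M : Ideal AlgInt) [hMm : M.IsMaximal] (p : ℕ) [Fact p.Prime] [CharP (FM M) p]

/-- conjugacy part of the extended first main theorem -/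
theorem exists_conj_of_induced (hM : IsPModular p M) {B : Set (IrrCharacter G)}
    {P : Subgroup G} (hP : IsDefectGroup p M B P)
    (H : Subgroup G) [Fintype H] (hPH : P ≤ H) (hCH : Subgroup.centralizer (P : Set G) ≤ H)
    (hHN : H ≤ Subgroup.normalizer (P : Set G))
    (hnorm : (H.subgroupOf (Subgroup.normalizer (P : Set G))).Normal)
    {b b' : Set (IrrCharacter H)} (hb : IsInducedBlock M H b B) (hb' : IsInducedBlock M H b' B) :
    ∃ n ∈ Subgroup.normalizer (P : Set G), ∀ θ ∈ b, ∃ θ' ∈ b', ∀ x : H,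
      ∀ hx : n * (x : G) * n⁻¹ ∈ H, (θ' : H → ℂ) x = (θ : H → ℂ) ⟨n * (x : G) * n⁻¹, hx⟩ := by
  classical
  have hMp := pmod_isPrime hM
  have hPp : IsPGroup p P := IsDefectGroup.isPGroup hP
  set K := Subgroup.normalizer (P : Set G) with hK
  have hPK : P ≤ K := Subgroup.le_normalizer
  haveI : (P.subgroupOf K).Normal := (Subgroup.normal_subgroupOf_iff_le_normalizer hPK).2 le_rfl
  obtain ⟨θ, hθ⟩ := block_nonempty M hb.1
  obtain ⟨θ', hθ'⟩ := block_nonempty M hb'.1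
  obtain ⟨χ, hχ⟩ := block_nonempty M hb.2.1
  have hi := (isInducedBlock_iff M H hb.1 hb.2.1 hθ hχ).1 hb
  have hi' := (isInducedBlock_iff M H hb'.1 hb.2.1 hθ' hχ).1 hb'
  have hP' : IsPGroup p (P.subgroupOf K) := hPp.comap_subtype
  have hPH' : P.subgroupOf K ≤ H.subgroupOf K := fun x hx => hPH hx
  have hCH' : Subgroup.centralizer ((P.subgroupOf K : Subgroup K) : Set K) ≤ H.subgroupOf K :=
    fun x hx => hCH ((mem_centralizer_subgroupOf_iff hPK x).1 hx)
  have hHN' : H.subgroupOf K ≤ Subgroup.normalizer ((P.subgroupOf K : Subgroup K) : Set K) := by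
    rw [Subgroup.normalizer_eq_top]; exact le_top
  obtain ⟨ζ, hζ⟩ := exists_lam_eq_lam_resZ M p hP' hPH' hCH' hHN' (downIrr hHN θ)
  obtain ⟨ζ', hζ'⟩ := exists_lam_eq_lam_resZ M p hP' hPH' hCH' hHN' (downIrr hHN θ')
  have h1 : IsInducedBlock M K (blockOf M (ζ : K → ℂ)) B :=
    (isInducedBlock_iff M K ⟨ζ, rfl⟩ hb.2.1 (mem_blockOf_self M ζ) hχ).2 (fun z => by
      rw [← hζ, lam_downIrr, hi])
  have h1' : IsInducedBlock M K (blockOf M (ζ' : K → ℂ)) B :=
    (isInducedBlock_iff M K ⟨ζ', rfl⟩ hb.2.1 (mem_blockOf_self M ζ') hχ).2 (fun z => by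
      rw [← hζ', lam_downIrr, hi'])
  have h2 := eq_of_induced_of_defect M p K hM hPp le_rfl le_rfl h1 h1'
    (isDefectGroup_subgroupOf_of_induced M p K hM hPK le_rfl h1 hP)
  have h3 : lam M ζ = lam M ζ' := by
    rw [← mem_blockOf_iff, h2]
    exact mem_blockOf_self M ζ'
  obtain ⟨k, hk⟩ := exists_cjIrr_mem_of_congr (H.subgroupOf K) hMp
    (b := blockOf M (downIrr hHN θ' : H.subgroupOf K → ℂ)) ⟨_, rfl⟩ (downIrr hHN θ)
    (downIrr hHN θ') (mem_blockOf_self M _) (fun n => by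
      obtain ⟨hR, he⟩ := lam_resZ_classSumZ M (H.subgroupOf K) (downIrr hHN θ) (n : K)
      obtain ⟨hR', he'⟩ := lam_resZ_classSumZ M (H.subgroupOf K) (downIrr hHN θ') (n : K)
      rw [← redC_eq_iff hR hR', ← he, ← he', hζ, hζ', h3])
  refine ⟨k, k.2, fun θ₁ hθ₁ => ?_⟩
  have h4 : SameBlock M (cjIrr (H.subgroupOf K) k (downIrr hHN θ) : H.subgroupOf K → ℂ)
      (cjIrr (H.subgroupOf K) k (downIrr hHN θ₁) : H.subgroupOf K → ℂ) :=
    sameBlock_cj _ k ((sameBlock_downIrr_iff hHN M θ θ₁).2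
      ((sameBlock_iff_lam_eq M θ θ₁).2 (lam_eq_of_mem_block M hb.1 hθ hθ₁)))
  rw [mem_blockOf_iff] at hk
  rw [sameBlock_iff_lam_eq] at h4
  refine ⟨(downIrr hHN).symm (cjIrr (H.subgroupOf K) k (downIrr hHN θ₁)), ?_, ?_⟩
  · apply mem_block_of_lam_eq M hb'.1 hθ'
    rw [← sameBlock_iff_lam_eq, ← sameBlock_downIrr_iff hHN, Equiv.apply_symm_apply,
      sameBlock_iff_lam_eq, hk, h4]
  · intro x hx
    rfl

end Cfsg.Agent.Lib.Helper16
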