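import Mathlib
import Cfsg.Agent.Lib.Helper16.CoverTools
import Cfsg.Agent.S4435
import Cfsg.Agent.S4436
import Cfsg.Agent.Lib.Helper78.HeightZero

/-!
# Covering blocks in towers of subgroups (helper16)
-/

set_option autoImplicit false

namespace Cfsg.Agent.Lib.Helper16

open Cfsg Cfsg.Agent.Lib.Helper78 Cfsg.Agent.Lib.Helper35 Cfsg.Agent.Lib.Helper15

section equiv

variable {A B : Type*} [Group A] [Group B] [Fintype A] [Fintype B] (e : A ≃* B)

theorem charDegree_irrCongr (χ : IrrCharacter B) :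
    charDegree (irrCongr e χ : A → ℂ) = charDegree (χ : B → ℂ) := by
  unfold charDegree
  rw [irrCongr_apply, map_one]

theorem minDeg_irrCongr (p : ℕ) (S : Set (IrrCharacter B)) :
    minDeg p (irrCongr e '' S) = minDeg p S := by
  unfold minDeg
  rw [Set.image_image]
  simp only [charDegree_irrCongr]

theorem blockDefect_irrCongr (p : ℕ) (S : Set (IrrCharacter B)) :
    blockDefect p (irrCongr e '' S) = blockDefect p S := by
  show (Nat.card A).factorization p - minDeg p (irrCongr e '' S) =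
    (Nat.card B).factorization p - minDeg p S
  rw [minDeg_irrCongr, Nat.card_congr e.toEquiv]

theorem blockHeight_irrCongr (p : ℕ) (S : Set (IrrCharacter B)) (χ : IrrCharacter B) :
    blockHeight p (irrCongr e '' S) (irrCongr e χ : A → ℂ) = blockHeight p S (χ : B → ℂ) := by
  show (charDegree (irrCongr e χ : A → ℂ)).factorization p - minDeg p (irrCongr e '' S) =
    (charDegree (χ : B → ℂ)).factorization p - minDeg p S
  rw [minDeg_irrCongr, charDegree_irrCongr]

end equiv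

section tower

variable {G : Type*} [Group G] [Fintype G] {N H : Subgroup G} (hNH : N ≤ H)
variable [Fintype N] [Fintype H] [Fintype (N.subgroupOf H)]

/-- covering in a tower -/
theorem covers_down_iff [(N.subgroupOf H).Normal] (B : Set (IrrCharacter H))
    (b : Set (IrrCharacter N)) :
    Covers (N.subgroupOf H) B (downIrr hNH '' b) ↔
      ∃ ψ ∈ B, ∃ θ ∈ b, classInner (fun n : N => (ψ : H → ℂ) ⟨(n : G), hNH n.2⟩) (θ : N → ℂ) ≠ 0 := by
  have key : ∀ (ψ : IrrCharacter H) (θ : IrrCharacter N),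
      classInner (fun n : N.subgroupOf H => (ψ : H → ℂ) n) (downIrr hNH θ : N.subgroupOf H → ℂ) =
      classInner (fun n : N => (ψ : H → ℂ) ⟨(n : G), hNH n.2⟩) (θ : N → ℂ) := by
    intro ψ θ
    exact classInner_comp_equiv (Subgroup.subgroupOfEquivOfLe hNH)
      (fun n : N => (ψ : H → ℂ) ⟨(n : G), hNH n.2⟩) (θ : N → ℂ)
  constructor
  · rintro ⟨ψ, hψ, _, ⟨θ, hθ, rfl⟩, h⟩
    exact ⟨ψ, hψ, θ, hθ, by rwa [key] at h⟩
  · rintro ⟨ψ, hψ, θ, hθ, h⟩
    exact ⟨ψ, hψ, _, ⟨θ, hθ, rfl⟩, by rwa [key]⟩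

theorem cjIrr_downIrr [hN : N.Normal] [(N.subgroupOf H).Normal] (t : H) (θ : IrrCharacter N) :
    cjIrr (N.subgroupOf H) t (downIrr hNH θ) = downIrr hNH (cjIrr N (t : G) θ) := rfl

end tower

section unique

variable {X : Type*} [Group X] [Fintype X] (Y : Subgroup X) [hY : Y.Normal] [Fintype Y]
variable {M : Ideal AlgInt} {p : ℕ} [Fact p.Prime]

omit [Fintype Y] [Fact p.Prime] in
theorem le_stab {b : Set (IrrCharacter Y)} {T : Subgroup X}
    (hT : ∀ g : X, g ∈ T ↔ ∀ θ ∈ b, cjIrr Y g θ ∈ b) : Y ≤ T := by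
  intro y hy
  rw [hT]
  intro θ hθ
  have : cjIrr Y y θ = θ := Subtype.ext (cj_of_mem Y hy (irr_isClassFunction θ))
  rw [this]; exact hθ

omit [Fintype Y] [Fact p.Prime] in
theorem stab_iff' {b : Set (IrrCharacter Y)} {T : Subgroup X}
    (hT : ∀ g : X, g ∈ T ↔ ∀ θ ∈ b, cjIrr Y g θ ∈ b) :
    ∀ g : X, g ∈ T ↔ ∀ θ ∈ b, ∀ θ' : IrrCharacter Y, (∀ n : Y, (θ' : Y → ℂ) n =
      (θ : Y → ℂ) ⟨g * n * g⁻¹, hY.conj_mem n n.2 g⟩) → θ' ∈ b := by
  intro g
  rw [hT g]
  constructor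
  · intro h θ hθ θ' hθ'
    have : θ' = cjIrr Y g θ := Subtype.ext (funext hθ')
    rw [this]
    exact h θ hθ
  · intro h θ hθ
    exact h θ hθ _ (fun n => rfl)

/-- If `β` is the only block covering `b`, then `d(β) = d(b) + ν_p |T : Y|`, `T` the stabilizer
of `b`. -/
theorem defect_of_unique_cover (hM : IsPModular p M) {b : Set (IrrCharacter Y)}
    (hb : IsPBlock M b) (T : Subgroup X) (hT : ∀ g : X, g ∈ T ↔ ∀ θ ∈ b, cjIrr Y g θ ∈ b)
    {β : Set (IrrCharacter X)} (hβ : IsPBlock M β) (hc : Covers Y β b)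
    (hu : ∀ β' : Set (IrrCharacter X), IsPBlock M β' → Covers Y β' b → β' = β) :
    blockDefect p β = blockDefect p b + (Y.relIndex T).factorization p := by
  classical
  haveI : M.IsMaximal := hM.2.1
  have hYT : Y ≤ T := le_stab Y hT
  have hT' := stab_iff' Y hT
  obtain ⟨h1, h2, h3⟩ := Cfsg.Agent.S4435.result p M hM Y b hb T hT' hYT
  obtain ⟨β', hβ', hc', hind⟩ := h3 β hβ hc
  obtain ⟨hdef, -⟩ := Cfsg.Agent.S4436.result p M hM Y b hb T hT' hYT β' hβ' hc' β hind
  obtain ⟨D, hD⟩ := exists_isDefectGroup hM hβ'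
  have hdd : blockDefect p β' = blockDefect p β := by
    have e1 := card_of_isDefectGroup hM hβ' hD
    have e2 := card_of_isDefectGroup hM hβ (hdef D hD)
    rw [Subgroup.card_map_of_injective T.subtype_injective, e1] at e2
    exact Nat.pow_right_injective hM.1.two_le e2
  have hb' : IsPBlock M (downIrr hYT '' b) := isPBlock_irrCongr _ M hb
  obtain ⟨-, -, h4⟩ := fong (Y.subgroupOf T) hM hb'
    (by
      rintro t _ ⟨θ, hθ, rfl⟩
      rw [cjIrr_downIrr]
      exact ⟨_, (hT t).1 t.2 θ hθ, rfl⟩)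
    hβ' ((covers_down_iff hYT β' b).2 hc')
    (by
      intro β'' hβ'' hc''
      have hc3 := (covers_down_iff hYT β'' b).1 hc''
      obtain ⟨B'', hi'', hcB'', -⟩ := h1 β'' hβ'' hc3
      have hB'' : B'' = β := hu B'' hi''.2.1 hcB''
      subst hB''
      rw [h2 β'' β' hβ'' hβ' hc3 hc' B'' hi'' hind])
    hD
  rw [← hdd, h4]
  congr 1
  exact blockDefect_irrCongr _ p b

end unique

end Cfsg.Agent.Lib.Helper16
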