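import Mathlib
import Cfsg.Agent.Lib.Helper16.RelCover
import Cfsg.Agent.Lib.Helper16.ExtFirstMain
import Cfsg.Agent.Lib.Helper16.FirstMain2

/-!
# Blocks induced from `P C_G(P)`: defect groups and the stabilizer index (helper16)
-/

set_option autoImplicit false

namespace Cfsg.Agent.Lib.Helper16

open Cfsg Cfsg.Agent.Lib.Helper78 Cfsg.Agent.Lib.Helper35 Cfsg.Agent.Lib.Helper15

section

variable {X : Type*} [Group X] [Fintype X] {M : Ideal AlgInt} {p : ℕ}

/-- a block covering a block of a normal subgroup `Y ≥ C(Q)`, `Q` a normal `p`-subgroup, is induced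
from it -/
theorem isInducedBlock_of_covers' (Q Y : Subgroup X) [Q.Normal] [Y.Normal] [Fintype Y]
    (hM : IsPModular p M) (hQ : IsPGroup p Q) (hCY : Subgroup.centralizer (Q : Set X) ≤ Y)
    {b : Set (IrrCharacter Y)} (hb : IsPBlock M b)
    {B : Set (IrrCharacter X)} (hB : IsPBlock M B) (hc : Covers Y B b) :
    IsInducedBlock M Y b B := by
  have hMp := pmod_isPrime hM
  refine ⟨hb, hB, fun ξ hξ χ hχ g => ?_⟩
  by_cases hg : g ∈ Y
  · have h1 := Covers.memLocalIdeal _ hMp hB hb hc χ hχ ξ hξ ⟨g, hg⟩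
    have h2 := MemLocalIdeal.neg h1
    rwa [neg_sub] at h2
  · rw [inducedCentralChar_eq_zero_of_not_mem _ _ hg, zero_sub]
    apply MemLocalIdeal.neg
    apply memLocalIdeal_centralChar_of_not_mem_centralizer Q hM hQ χ
    intro h
    exact hg (hCY h)

theorem covers_of_isInducedBlock (Y : Subgroup X) [Y.Normal] [Fintype Y] (hM : M.IsPrime)
    {b : Set (IrrCharacter Y)} {B : Set (IrrCharacter X)} (h : IsInducedBlock M Y b B) :
    Covers Y B b := by
  rw [covers_iff Y hM h.2.1 h.1]
  intro χ hχ θ hθ n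
  have h2 := MemLocalIdeal.neg (h.2.2 θ hθ χ hχ n)
  rwa [neg_sub] at h2

end

section main

variable {G : Type*} [Group G] [Fintype G]
variable (M : Ideal AlgInt) [hMm : M.IsMaximal] (p : ℕ) [Fact p.Prime] [CharP (FM M) p]

/-- Let `P C(P) ≤ H ≤ N(P)` with `H` normal in `N(P)`, `b` a block of `H` with defect group `P`
inducing `B`, and `T` the stabilizer of `b` in `N(P)`.  Then `B` has defect group `P` iff
`p ∤ |T : H|`. -/
theorem isDefectGroup_iff_relIndex (hM : IsPModular p M) {P : Subgroup G} (hP : IsPGroup p P)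
    (H : Subgroup G) [Fintype H] (hPH : P ≤ H) (hCH : Subgroup.centralizer (P : Set G) ≤ H)
    (hHN : H ≤ Subgroup.normalizer (P : Set G))
    (hnorm : (H.subgroupOf (Subgroup.normalizer (P : Set G))).Normal)
    {b : Set (IrrCharacter H)} (hbP : IsDefectGroup p M b (P.subgroupOf H))
    {B : Set (IrrCharacter G)} (hind : IsInducedBlock M H b B) (T : Subgroup G)
    (hT : ∀ g : G, g ∈ T ↔ (g ∈ Subgroup.normalizer (P : Set G) ∧ ∀ θ ∈ b,
      ∀ θ' : IrrCharacter H, (∀ h h' : H, (h' : G) = g * h * g⁻¹ →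
        (θ' : H → ℂ) h' = (θ : H → ℂ) h) → θ' ∈ b)) :
    IsDefectGroup p M B P ↔ ¬ p ∣ H.relIndex T := by
  classical
  have hMp := pmod_isPrime hM
  have hp := hM.1
  set K := Subgroup.normalizer (P : Set G) with hK
  have hPK : P ≤ K := Subgroup.le_normalizer
  haveI : (P.subgroupOf K).Normal := (Subgroup.normal_subgroupOf_iff_le_normalizer hPK).2 le_rfl
  have hb : IsPBlock M b := hind.1
  have hB : IsPBlock M B := hind.2.1
  obtain ⟨θ, hθ⟩ := block_nonempty M hb
  obtain ⟨χ, hχ⟩ := block_nonempty M hB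
  have hi := (isInducedBlock_iff M H hb hB hθ hχ).1 hind
  have hP' : IsPGroup p (P.subgroupOf K) := hP.comap_subtype
  have hPH' : P.subgroupOf K ≤ H.subgroupOf K := fun x hx => hPH hx
  have hCH' : Subgroup.centralizer ((P.subgroupOf K : Subgroup K) : Set K) ≤ H.subgroupOf K :=
    fun x hx => hCH ((mem_centralizer_subgroupOf_iff hPK x).1 hx)
  have hHN' : H.subgroupOf K ≤ Subgroup.normalizer ((P.subgroupOf K : Subgroup K) : Set K) := by
    rw [Subgroup.normalizer_eq_top]; exact le_top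
  obtain ⟨ζ, hζ⟩ := exists_lam_eq_lam_resZ M p hP' hPH' hCH' hHN' (downIrr hHN θ)
  set β := blockOf M (ζ : K → ℂ) with hβdef
  have hβ : IsPBlock M β := ⟨ζ, rfl⟩
  have hb' : IsPBlock M (downIrr hHN '' b) := isPBlock_irrCongr _ M hb
  have h1 : IsInducedBlock M K β B :=
    (isInducedBlock_iff M K hβ hB (mem_blockOf_self M ζ) hχ).2 (fun z => by
      rw [← hζ, lam_downIrr, hi])
  have h2 : IsInducedBlock M (H.subgroupOf K) (downIrr hHN '' b) β :=
    (isInducedBlock_iff M (H.subgroupOf K) hb' hβ ⟨θ, hθ, rfl⟩ (mem_blockOf_self M ζ)).2 hζ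
  have hc : Covers (H.subgroupOf K) β (downIrr hHN '' b) := covers_of_isInducedBlock _ hMp h2
  have hu : ∀ β' : Set (IrrCharacter K), IsPBlock M β' →
      Covers (H.subgroupOf K) β' (downIrr hHN '' b) → β' = β := by
    intro β' hβ' hc'
    exact induced_unique M _
      (isInducedBlock_of_covers' (P.subgroupOf K) (H.subgroupOf K) hM hP' hCH' hb' hβ' hc') h2
  have hTK : T ≤ K := fun g hg => ((hT g).1 hg).1
  have hT' : ∀ g : K, g ∈ T.subgroupOf K ↔
      ∀ θ' ∈ downIrr hHN '' b, cjIrr (H.subgroupOf K) g θ' ∈ downIrr hHN '' b := by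
    intro g
    rw [Subgroup.mem_subgroupOf]
    constructor
    · rintro hg _ ⟨θ₁, hθ₁, rfl⟩
      have hg' := ((hT _).1 (T.inv_mem hg)).2 θ₁ hθ₁
        ((downIrr hHN).symm (cjIrr (H.subgroupOf K) g (downIrr hHN θ₁)))
        (by
          intro h h' hh
          show (θ₁ : H → ℂ) ⟨(g : G) * (h' : G) * (g : G)⁻¹, _⟩ = (θ₁ : H → ℂ) h
          apply congrArg
          apply Subtype.ext
          show (g : G) * (h' : G) * (g : G)⁻¹ = (h : G)
          rw [hh]; group)
      exact ⟨_, hg', by rw [Equiv.apply_symm_apply]⟩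
    · intro hg
      have : (g : G)⁻¹ ∈ T := by
        rw [hT]
        refine ⟨K.inv_mem g.2, fun θ₁ hθ₁ θ' hθ' => ?_⟩
        obtain ⟨θ₂, hθ₂, he⟩ := hg _ ⟨θ₁, hθ₁, rfl⟩
        have : θ' = θ₂ := by
          apply (downIrr hHN).injective
          rw [he]
          apply Subtype.ext
          funext y
          show (θ' : H → ℂ) ⟨((y : K) : G), y.2⟩ =
            (θ₁ : H → ℂ) ⟨(g : G) * ((y : K) : G) * (g : G)⁻¹, _⟩
          apply hθ'
          show ((y : K) : G) = (g : G)⁻¹ * ((g : G) * ((y : K) : G) * (g : G)⁻¹) * (g : G)⁻¹⁻¹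
          group
        rw [this]; exact hθ₂
      simpa using T.inv_mem this
  have hdef := defect_of_unique_cover (H.subgroupOf K) hM hb' (T.subgroupOf K) hT' hβ hc hu
  rw [Subgroup.relIndex_subgroupOf hTK] at hdef
  have hdb : blockDefect p (downIrr hHN '' b) = blockDefect p b := blockDefect_irrCongr _ p b
  rw [hdb] at hdef
  have hcardP : Nat.card P = p ^ blockDefect p b := by
    rw [← card_of_isDefectGroup hM hb hbP, card_subgroupOf_of_le hPH]
  have hrel0 : H.relIndex T ≠ 0 := Subgroup.index_ne_zero_of_finite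
  constructor
  · intro hD
    have h3 := isDefectGroup_subgroupOf_of_induced M p K hM hPK le_rfl h1 hD
    have h4 := card_of_isDefectGroup hM hβ h3
    rw [card_subgroupOf_of_le hPK, hcardP] at h4
    have h5 := Nat.pow_right_injective hp.two_le h4
    have h6 : (H.relIndex T).factorization p = 0 := by omega
    intro hdvd
    have := (hp.dvd_iff_one_le_factorization hrel0).1 hdvd
    omega
  · intro hnd
    have h6 : (H.relIndex T).factorization p = 0 := Nat.factorization_eq_zero_of_not_dvd hnd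
    obtain ⟨D, hD⟩ := exists_isDefectGroup hM hβ
    have h7 := subgroupOf_le_defect M p K hM hP hPK le_rfl hβ hD
    have h8 : Nat.card D ≤ Nat.card (P.subgroupOf K) := by
      rw [card_of_isDefectGroup hM hβ hD, card_subgroupOf_of_le hPK, hcardP, hdef, h6, add_zero]
    rw [← Subgroup.eq_of_le_of_card_ge h7 h8] at hD
    exact isDefectGroup_of_induced M p K hM hP le_rfl le_rfl h1 hD

end main

end Cfsg.Agent.Lib.Helper16
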