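import Mathlib
import Cfsg.Agent.Lib.Helper16.RootDefect

/-!
# Uniqueness of covering blocks when the centralizer of a defect group lies in the normal subgroup
(helper16)
-/

set_option autoImplicit false

namespace Cfsg.Agent.Lib.Helper16

open Cfsg Cfsg.Agent.Lib.Helper78 Cfsg.Agent.Lib.Helper35 Cfsg.Agent.Lib.Helper15

section

variable {G : Type*} [Group G] [Fintype G] {M : Ideal AlgInt} {p : ℕ} [Fact p.Prime]
variable (K : Subgroup G) [hK : K.Normal] [Fintype K]

/-- If `B` covers the block `b` of the normal subgroup `K`, `Q` is a defect group of `b` and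
`C_G(Q) ≤ K`, then the central characters of `B` vanish mod `M` outside `K`. -/
theorem memLocalIdeal_centralChar_of_covers (hM : IsPModular p M) {b : Set (IrrCharacter K)}
    (hb : IsPBlock M b) {Q : Subgroup K} (hQ : IsDefectGroup p M b Q)
    (hC : Subgroup.centralizer ((Q.map K.subtype : Subgroup G) : Set G) ≤ K)
    {B : Set (IrrCharacter G)} (hB : IsPBlock M B) (hc : Covers K B b)
    {χ : IrrCharacter G} (hχ : χ ∈ B) {g : G} (hg : g ∉ K) :
    MemLocalIdeal M (centralChar (χ : G → ℂ) g) := by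
  by_contra hcon
  obtain ⟨D, hD⟩ := exists_isDefectGroup hM hB
  obtain ⟨x, hx⟩ := minmax_b hM hB hD hχ hcon
  obtain ⟨y, hy⟩ := knorr_le K hM hB hb hc hD hQ
  apply hg
  -- `g` centralizes `cj (x * y⁻¹) Q`
  have h1 : cj (x * y⁻¹) (Q.map K.subtype) ≤ Subgroup.centralizer ({g} : Set G) := by
    refine le_trans ?_ hx
    have := cj_mono (x * y⁻¹) hy
    rwa [cj_cj, inv_mul_cancel_right] at this
  have h2 : (x * y⁻¹)⁻¹ * g * (x * y⁻¹) ∈
      Subgroup.centralizer ((Q.map K.subtype : Subgroup G) : Set G) := by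
    rw [Subgroup.mem_centralizer_iff]
    intro q hq
    have h3 := Subgroup.mem_centralizer_singleton_iff.1 (h1 (conj_mem_cj (x := x * y⁻¹) hq))
    set w := x * y⁻¹ with hw
    calc q * (w⁻¹ * g * w) = w⁻¹ * ((w * q * w⁻¹) * g) * w := by group
      _ = w⁻¹ * (g * (w * q * w⁻¹)) * w := by rw [h3]
      _ = w⁻¹ * g * w * q := by group
  have h4 := hK.conj_mem _ (hC h2) (x * y⁻¹)
  simpa [mul_assoc] using h4

/-- under the same hypotheses `B` is induced from `b` -/
theorem isInducedBlock_of_covers_of_centralizer_le (hM : IsPModular p M)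
    {b : Set (IrrCharacter K)} (hb : IsPBlock M b) {Q : Subgroup K} (hQ : IsDefectGroup p M b Q)
    (hC : Subgroup.centralizer ((Q.map K.subtype : Subgroup G) : Set G) ≤ K)
    {B : Set (IrrCharacter G)} (hB : IsPBlock M B) (hc : Covers K B b) :
    IsInducedBlock M K b B := by
  have hMp := pmod_isPrime hM
  refine ⟨hb, hB, fun ξ hξ χ hχ g => ?_⟩
  by_cases hg : g ∈ K
  · have h1 := Covers.memLocalIdeal _ hMp hB hb hc χ hχ ξ hξ ⟨g, hg⟩
    have h2 := MemLocalIdeal.neg h1
    rwa [neg_sub] at h2
  · rw [inducedCentralChar_eq_zero_of_not_mem _ _ hg, zero_sub]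
    exact MemLocalIdeal.neg (memLocalIdeal_centralChar_of_covers K hM hb hQ hC hB hc hχ hg)

/-- ... and is the only block covering `b`. -/
theorem covers_unique_of_centralizer_le (hM : IsPModular p M)
    {b : Set (IrrCharacter K)} (hb : IsPBlock M b) {Q : Subgroup K} (hQ : IsDefectGroup p M b Q)
    (hC : Subgroup.centralizer ((Q.map K.subtype : Subgroup G) : Set G) ≤ K)
    {B B' : Set (IrrCharacter G)} (hB : IsPBlock M B) (hc : Covers K B b)
    (hB' : IsPBlock M B') (hc' : Covers K B' b) : B = B' := by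
  haveI : M.IsMaximal := hM.2.1
  exact induced_unique M K (isInducedBlock_of_covers_of_centralizer_le K hM hb hQ hC hB hc)
    (isInducedBlock_of_covers_of_centralizer_le K hM hb hQ hC hB' hc')

end

end Cfsg.Agent.Lib.Helper16
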