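import Cfsg.Agent.Lib.Helper97.FH.Defs

set_option autoImplicit false

/-! # Feit--Higman farm, piece AN1 : the idempotent / trace argument -/

namespace Cfsg.Agent.Lib.Helper16.FH

open Cfsg Cfsg.Agent.Lib.Helper6.BN Cfsg.Agent.Lib.Helper97.FH
open scoped Classical

variable {G : Type*} [Group G]

/-- the trace of an idempotent complex matrix is a natural number -/
theorem trace_idem_nat {ι : Type*} [Fintype ι] [DecidableEq ι] (E : Matrix ι ι ℂ)
    (hE : E * E = E) : ∃ d : ℕ, E.trace = d := by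
  have h1 : IsIdempotentElem (Matrix.toLin' E) := by
    unfold IsIdempotentElem
    rw [Module.End.mul_eq_comp, ← Matrix.toLin'_mul, hE]
  have h2 := (LinearMap.IsIdempotentElem.isProj_range _ h1).trace
  rw [Matrix.trace_toLin'_eq] at h2
  exact ⟨_, h2⟩

theorem opA_sub [Fintype G] (K1 K2 : Subgroup G) (φ ψ : G → ℂ) (κ : ℂ) (g : G) :
    opA K1 K2 (fun a => φ a - κ * ψ a) g = opA K1 K2 φ g - κ * opA K1 K2 ψ g := by
  unfold opA
  rw [Finset.mul_sum, ← Finset.sum_sub_distrib]
  refine Finset.sum_congr rfl fun x _ => ?_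
  rw [Finset.mul_sum, ← Finset.sum_sub_distrib]
  refine Finset.sum_congr rfl fun y _ => ?_
  split_ifs <;> simp

theorem idem_core [Fintype G] (H K2 : Subgroup G) (μ : ℂ) (f : G → ℂ)
    (hf : BiInv H f) (hev : ∀ g, opA H K2 f g = μ * f g) (hinv : ∀ g, f g⁻¹ = f g)
    (huniq : ∀ φ, BiInv H φ → (∀ g, opA H K2 φ g = μ * φ g) → φ 1 = 0 → φ = 0)
    (h1 : f 1 ≠ 0) (h2 : ∑ k, f k ^ 2 ≠ 0) :
    ∃ d : ℕ, (Nat.card G : ℂ) * f 1 ^ 2 = d * ∑ k, f k ^ 2 := by
  set c : G → ℂ := fun a => ∑ k, f (a * k⁻¹) * f k with hc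
  set S : ℂ := ∑ k, f k ^ 2 with hS
  set κ : ℂ := S / f 1 with hκ
  have hκ0 : κ ≠ 0 := div_ne_zero h2 h1
  have hcBi : BiInv H c := by
    intro h hh h' hh' g
    simp only [hc]
    rw [← Equiv.sum_comp (Equiv.mulRight h')]
    refine Finset.sum_congr rfl fun k _ => ?_
    simp only [Equiv.coe_mulRight]
    have e1 : h * g * h' * (k * h')⁻¹ = h * (g * k⁻¹) * 1 := by group
    have e2 : k * h' = 1 * k * h' := by group
    rw [e1, hf h hh 1 H.one_mem, e2, hf 1 H.one_mem h' hh']
  have hcev : ∀ g, opA H K2 c g = μ * c g := by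
    intro g
    have : opA H K2 c g = ∑ k, opA H K2 f (g * k⁻¹) * f k := by
      unfold opA
      simp only [hc, Finset.sum_mul]
      rw [Finset.sum_comm]
      -- now LHS: ∑ y, ∑ x ; RHS ∑ k ∑ x ∑ y
      rw [Finset.sum_comm]
      refine Eq.trans ?_ (Finset.sum_comm)
      refine Finset.sum_congr rfl fun x _ => ?_
      refine Eq.trans ?_ (Finset.sum_comm)
      refine Finset.sum_congr rfl fun y _ => ?_
      split_ifs with hxy
      · refine Finset.sum_congr rfl fun k _ => ?_
        rw [mul_assoc (y * x)]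
      · simp
    rw [this]
    simp only [hev, hc, Finset.mul_sum, mul_assoc]
  have hc1 : c 1 = S := by
    simp only [hc, hS, one_mul, hinv, sq]
  have hck : ∀ a, c a = κ * f a := by
    have h0 := huniq (fun a => c a - κ * f a) ?_ ?_ ?_
    · intro a
      have := congrFun h0 a
      simp only [Pi.zero_apply] at this
      linear_combination this
    · intro h hh h' hh' g
      simp only [hcBi h hh h' hh' g, hf h hh h' hh' g]
    · intro g
      rw [opA_sub, hcev, hev]; ring
    · simp only [hc1, hκ]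
      field_simp
      ring
  set M : Matrix G G ℂ := fun g h => f (g * h⁻¹) with hM
  have hMM : M * M = κ • M := by
    ext g h
    rw [Matrix.mul_apply, Matrix.smul_apply, smul_eq_mul]
    simp only [hM]
    rw [← hck, hc]
    simp only
    rw [← Equiv.sum_comp (Equiv.mulRight h)]
    refine Finset.sum_congr rfl fun k _ => ?_
    simp only [Equiv.coe_mulRight]
    congr 2 <;> group
  obtain ⟨d, hd⟩ := trace_idem_nat (κ⁻¹ • M) (by
    rw [Matrix.smul_mul, Matrix.mul_smul, hMM, smul_smul, smul_smul]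
    congr 1
    field_simp)
  refine ⟨d, ?_⟩
  rw [Matrix.trace_smul, smul_eq_mul] at hd
  have htr : M.trace = (Nat.card G : ℂ) * f 1 := by
    simp [Matrix.trace, hM, Matrix.diag]
  rw [htr] at hd
  have : (Nat.card G : ℂ) * f 1 = d * κ := by
    field_simp at hd
    linear_combination hd
  calc (Nat.card G : ℂ) * f 1 ^ 2 = ((Nat.card G : ℂ) * f 1) * f 1 := by ring
    _ = d * κ * f 1 := by rw [this]
    _ = d * S := by rw [hκ]; field_simp

end Cfsg.Agent.Lib.Helper16.FH
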