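import Cfsg.Agent.Lib.Helper97.FH.Defs

set_option autoImplicit false

/-! # Feit--Higman farm, piece AN5 : the norm of the explicit eigenfunction (geometric sums) -/

namespace Cfsg.Agent.Lib.Helper16.FH

open Cfsg Cfsg.Agent.Lib.Helper97.FH

theorem Gs_sq_mul {u v : ℕ} {r ξ : ℂ} (hr0 : r ≠ 0) (hr : r ^ 2 = u * v) (hξ0 : ξ ≠ 0) (i : ℕ) :
    ((u : ℂ) * v) ^ i * Gs u v r ξ i ^ 2 =
      aC u v r ξ ^ 2 * (ξ ^ 2) ^ i + aC u v r ξ⁻¹ ^ 2 * (ξ⁻¹ ^ 2) ^ i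
        - 2 * (aC u v r ξ * aC u v r ξ⁻¹) := by
  unfold Gs
  generalize aC u v r ξ = a
  generalize aC u v r ξ⁻¹ = a'
  have h1 : ((u : ℂ) * v) ^ i * (r⁻¹ ^ i) ^ 2 = 1 := by
    rw [← hr, ← pow_mul, ← pow_mul, inv_pow, mul_comm i 2]
    exact mul_inv_cancel₀ (pow_ne_zero _ hr0)
  have h2 : ξ ^ i * ξ⁻¹ ^ i = 1 := by
    rw [← mul_pow, mul_inv_cancel₀ hξ0, one_pow]
  have e1 : (ξ ^ 2) ^ i = (ξ ^ i) ^ 2 := by rw [← pow_mul, mul_comm, pow_mul]
  have e2 : (ξ⁻¹ ^ 2) ^ i = (ξ⁻¹ ^ i) ^ 2 := by rw [← pow_mul, mul_comm, pow_mul]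
  rw [e1, e2]
  linear_combination (a * ξ ^ i - a' * ξ⁻¹ ^ i) ^ 2 * h1 - 2 * a * a' * h2

theorem Gs_sum {m u v : ℕ} (hm : 2 ≤ m) (hu : 2 ≤ u) (hv : 2 ≤ v) {r ξ : ℂ}
    (hr : r ^ 2 = u * v) (hodd : Odd m → (u = v ∧ r = u)) (hξ : ξ ^ m = 1) (hξ2 : ξ ^ 2 ≠ 1) :
    ∑ i ∈ Finset.range (m / 2 + 1), (kk m u v i : ℂ) * Gs u v r ξ i ^ 2 =
      - (m : ℂ) * ((u + 1) / u) * (aC u v r ξ * aC u v r ξ⁻¹) := by
  have hu0 : (u : ℂ) ≠ 0 := by
    have : 0 < u := by omega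
    exact_mod_cast this.ne'
  have hv0 : (v : ℂ) ≠ 0 := by
    have : 0 < v := by omega
    exact_mod_cast this.ne'
  have hr0 : r ≠ 0 := by
    intro h
    rw [h] at hr
    have : (u : ℂ) * v ≠ 0 := mul_ne_zero hu0 hv0
    apply this
    rw [← hr]; simp
  have hξ0 : ξ ≠ 0 := by
    intro h
    rw [h, zero_pow (by omega)] at hξ
    exact zero_ne_one hξ
  have hξi2 : ξ⁻¹ ^ 2 ≠ 1 := by
    intro h
    apply hξ2
    rw [inv_pow] at h
    exact inv_eq_one.mp h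
  set a := aC u v r ξ with ha
  set a' := aC u v r ξ⁻¹ with ha'
  set T : ℕ → ℂ := fun i => a ^ 2 * (ξ ^ 2) ^ i + a' ^ 2 * (ξ⁻¹ ^ 2) ^ i - 2 * (a * a') with hT
  have hG : ∀ i, ((u : ℂ) * v) ^ i * Gs u v r ξ i ^ 2 = T i := fun i => Gs_sq_mul hr0 hr hξ0 i
  have hmid : ∀ i, (((u + 1) * v * (u * v) ^ i : ℕ) : ℂ) * Gs u v r ξ (i + 1) ^ 2 =
      ((u + 1) / u) * T (i + 1) := by
    intro i
    rw [← hG]
    push_cast
    field_simp
    ring
  have h0 : ((kk m u v 0 : ℕ) : ℂ) * Gs u v r ξ 0 ^ 2 = T 0 := by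
    rw [← hG]
    simp [kk]
  rcases Nat.even_or_odd' m with ⟨H, rfl | rfl⟩
  · obtain ⟨K, rfl⟩ : ∃ K, H = K + 1 := ⟨H - 1, by omega⟩
    have e1 : 2 * (K + 1) / 2 + 1 = (K + 1) + 1 := by
      rw [Nat.mul_div_cancel_left _ (by norm_num)]
    rw [e1, Finset.sum_range_succ, Finset.sum_range_succ', h0]
    have hlast : ((kk (2 * (K + 1)) u v (K + 1) : ℕ) : ℂ) * Gs u v r ξ (K + 1) ^ 2 =
        (1 / u) * T (K + 1) := by
      rw [← hG, kk, if_neg (by omega), if_pos rfl, Nat.add_sub_cancel]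
      push_cast
      field_simp
      ring
    rw [hlast]
    have hs : ∑ i ∈ Finset.range K, ((kk (2 * (K + 1)) u v (i + 1) : ℕ) : ℂ) * Gs u v r ξ (i + 1) ^ 2
        = ((u + 1) / u) * ∑ i ∈ Finset.range K, T (i + 1) := by
      rw [Finset.mul_sum]
      refine Finset.sum_congr rfl fun i hi => ?_
      have hi' := Finset.mem_range.mp hi
      rw [← hmid, kk, if_neg (by omega), if_neg (by omega)]
      simp only [Nat.add_sub_cancel]
    rw [hs]
    have hw : (ξ ^ 2) ^ (K + 1) = 1 := by rw [← pow_mul]; exact hξ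
    have hw' : (ξ⁻¹ ^ 2) ^ (K + 1) = 1 := by
      rw [← pow_mul, inv_pow, hξ, inv_one]
    have g1 : ∑ i ∈ Finset.range (K + 1), (ξ ^ 2) ^ i = 0 := by
      have := geom_sum_mul (ξ ^ 2) (K + 1)
      rw [hw, sub_self] at this
      rcases mul_eq_zero.mp this with h | h
      · exact h
      · exact absurd (sub_eq_zero.mp h) hξ2
    have g2 : ∑ i ∈ Finset.range (K + 1), (ξ⁻¹ ^ 2) ^ i = 0 := by
      have := geom_sum_mul (ξ⁻¹ ^ 2) (K + 1)
      rw [hw', sub_self] at this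
      rcases mul_eq_zero.mp this with h | h
      · exact h
      · exact absurd (sub_eq_zero.mp h) hξi2
    have hsum : ∑ i ∈ Finset.range (K + 1), T i = - (2 * (K + 1) : ℂ) * (a * a') := by
      simp only [hT, Finset.sum_sub_distrib, Finset.sum_add_distrib, ← Finset.mul_sum, g1, g2]
      simp
      ring
    have hsplit : ∑ i ∈ Finset.range K, T (i + 1) = ∑ i ∈ Finset.range (K + 1), T i - T 0 := by
      rw [Finset.sum_range_succ']; ring
    have hTK : T (K + 1) = T 0 := by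
      simp only [hT, hw, hw', pow_zero]
    rw [hsplit, hsum, hTK]
    push_cast
    field_simp
    ring
  · have hH : 1 ≤ H := by omega
    obtain ⟨huv, hru⟩ := hodd ⟨H, rfl⟩
    subst huv
    have e1 : (2 * H + 1) / 2 + 1 = H + 1 := by omega
    rw [e1, Finset.sum_range_succ', h0]
    have hs : ∑ i ∈ Finset.range H, ((kk (2 * H + 1) u u (i + 1) : ℕ) : ℂ) * Gs u u r ξ (i + 1) ^ 2
        = ((u + 1) / u) * ∑ i ∈ Finset.range H, T (i + 1) := by
      rw [Finset.mul_sum]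
      refine Finset.sum_congr rfl fun i hi => ?_
      rw [← hmid, kk, if_neg (by omega), if_neg (by omega)]
      simp only [Nat.add_sub_cancel]
    rw [hs]
    have hξ1 : ξ - 1 ≠ 0 := by
      intro h
      apply hξ2
      rw [sub_eq_zero.mp h]; simp
    have hξp : ξ + 1 ≠ 0 := by
      intro h
      apply hξ2
      have : ξ = -1 := by linear_combination h
      rw [this]; norm_num
    have hw : (ξ ^ 2) ^ H = ξ⁻¹ := by
      rw [← pow_mul]
      rw [pow_succ] at hξ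
      exact eq_inv_of_mul_eq_one_left hξ
    have hw' : (ξ⁻¹ ^ 2) ^ H = ξ := by
      rw [inv_pow, inv_pow, hw, inv_inv]
    have g1 : ∑ i ∈ Finset.range H, (ξ ^ 2) ^ (i + 1) = - ξ / (ξ + 1) := by
      have h1 := geom_sum_mul (ξ ^ 2) H
      rw [hw] at h1
      have h2 : ∑ i ∈ Finset.range H, (ξ ^ 2) ^ (i + 1) = ξ ^ 2 * ∑ i ∈ Finset.range H, (ξ ^ 2) ^ i := by
        rw [Finset.mul_sum]
        refine Finset.sum_congr rfl fun i _ => ?_
        rw [pow_succ]; ring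
      rw [h2, eq_div_iff hξp]
      have h3 : (ξ - 1) * (ξ ^ 2 * (∑ i ∈ Finset.range H, (ξ ^ 2) ^ i) * (ξ + 1) + ξ) = 0 := by
        have : ξ ^ 2 * ξ⁻¹ = ξ := by field_simp
        linear_combination ξ ^ 2 * h1 + this
      rcases mul_eq_zero.mp h3 with h | h
      · exact absurd h hξ1
      · linear_combination h
    have g2 : ∑ i ∈ Finset.range H, (ξ⁻¹ ^ 2) ^ (i + 1) = - 1 / (ξ + 1) := by
      have h1 := geom_sum_mul (ξ⁻¹ ^ 2) H
      rw [hw'] at h1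
      have h2 : ∑ i ∈ Finset.range H, (ξ⁻¹ ^ 2) ^ (i + 1) =
          ξ⁻¹ ^ 2 * ∑ i ∈ Finset.range H, (ξ⁻¹ ^ 2) ^ i := by
        rw [Finset.mul_sum]
        refine Finset.sum_congr rfl fun i _ => ?_
        rw [pow_succ]; ring
      rw [h2, eq_div_iff hξp]
      set Sg := ∑ i ∈ Finset.range H, (ξ⁻¹ ^ 2) ^ i
      -- h1 : Sg * (ξ⁻¹ ^ 2 - 1) = ξ - 1
      have h1' : Sg * (1 - ξ ^ 2) = (ξ - 1) * ξ ^ 2 := by
        have : (ξ⁻¹ ^ 2 - 1) * ξ ^ 2 = 1 - ξ ^ 2 := by field_simp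
        rw [← this, ← mul_assoc, h1]
      have h3 : (ξ - 1) * (Sg * (ξ + 1) + ξ ^ 2) = 0 := by
        linear_combination - h1'
      have h4 : Sg * (ξ + 1) = - ξ ^ 2 := by
        rcases mul_eq_zero.mp h3 with h | h
        · exact absurd h hξ1
        · linear_combination h
      have : ξ⁻¹ ^ 2 * ξ ^ 2 = 1 := by field_simp
      linear_combination ξ⁻¹ ^ 2 * h4 - this
    have hsum : ∑ i ∈ Finset.range H, T (i + 1) =
        a ^ 2 * (- ξ / (ξ + 1)) + a' ^ 2 * (- 1 / (ξ + 1)) - 2 * H * (a * a') := by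
      simp only [hT, Finset.sum_sub_distrib, Finset.sum_add_distrib, ← Finset.mul_sum, g1, g2]
      simp
      ring
    rw [hsum]
    simp only [hT, pow_zero, mul_one]
    have haE : a = u * (ξ + 1) * (u - ξ⁻¹) := by
      rw [ha, aC, hru]
      field_simp
      ring
    have haE' : a' = u * (ξ + 1) * ξ⁻¹ * (u - ξ) := by
      rw [ha', aC, hru, inv_inv]
      field_simp
      ring
    rw [haE, haE']
    push_cast
    field_simp
    ring

end Cfsg.Agent.Lib.Helper16.FH
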