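import Mathlib
import Cfsg.Agent.Lib.Helper16.RelCover
import Cfsg.Agent.Lib.Helper16.CoverTools
import Cfsg.Agent.S4435
import Cfsg.Agent.S4436

/-!
# Stabilizers of blocks of normal subgroups; defect groups inside the stabilizer (helper16)
-/

set_option autoImplicit false

namespace Cfsg.Agent.Lib.Helper16

open Cfsg Cfsg.Agent.Lib.Helper78 Cfsg.Agent.Lib.Helper35 Cfsg.Agent.Lib.Helper15

section

variable {G : Type*} [Group G] [Fintype G] (N : Subgroup G) [hN : N.Normal]
variable {M : Ideal AlgInt} {p : ℕ} [Fact p.Prime]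

theorem cjIrr_one' (θ : IrrCharacter N) : cjIrr N 1 θ = θ := Subtype.ext (Cfsg.Agent.Lib.Helper15.cj_one N _)

/-- stabilizer of a set of irreducible characters of a normal subgroup -/
def blockStab (b : Set (IrrCharacter N)) : Subgroup G where
  carrier := {g | ∀ θ, cjIrr N g θ ∈ b ↔ θ ∈ b}
  one_mem' := fun θ => by rw [cjIrr_one']
  mul_mem' := by
    intro x y hx hy θ
    rw [← cjIrr_cjIrr, hy, hx]
  inv_mem' := by
    intro x hx θ
    rw [← hx (cjIrr N x⁻¹ θ), cjIrr_cjIrr, inv_mul_cancel, cjIrr_one']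

theorem mem_blockStab_iff (hM : M.IsPrime) {b : Set (IrrCharacter N)} (hb : IsPBlock M b) (g : G) :
    g ∈ blockStab N b ↔ ∀ θ ∈ b, cjIrr N g θ ∈ b := by
  constructor
  · intro h θ hθ
    exact (h θ).2 hθ
  · intro h θ
    refine ⟨fun h1 => ?_, h θ⟩
    obtain ⟨θ₀, hθ₀⟩ := IsPBlock.nonempty hM hb
    have h2 := sameBlock_cj N g⁻¹ (IsPBlock.sameBlock hM hb (h θ₀ hθ₀) h1)
    have e : ∀ φ : IrrCharacter N,
        Cfsg.Agent.Lib.Helper15.cj N g⁻¹ (cjIrr N g φ : N → ℂ) = (φ : N → ℂ) := by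
      intro φ
      have := cjIrr_cjIrr N g⁻¹ g φ
      rw [mul_inv_cancel, cjIrr_one'] at this
      exact congrArg Subtype.val this
    rw [e, e] at h2
    exact IsPBlock.mem_of_sameBlock hM hb hθ₀ h2

/-- Fong–Reynolds + Knörr: a block `B` covering `b` has a defect group `D` inside the stabilizer
of `b` with `D ∩ N` a defect group of `b`. -/
theorem exists_defect_in_stab [Fintype N] (hM : IsPModular p M) {B : Set (IrrCharacter G)}
    (hB : IsPBlock M B) {b : Set (IrrCharacter N)} (hb : IsPBlock M b) (hc : Covers N B b) :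
    ∃ D : Subgroup G, IsDefectGroup p M B D ∧ D ≤ blockStab N b ∧
      IsDefectGroup p M b ((D ⊓ N).subgroupOf N) := by
  classical
  haveI : M.IsMaximal := hM.2.1
  have hMp := pmod_isPrime hM
  set T := blockStab N b with hTdef
  have hT := mem_blockStab_iff N hMp hb
  have hNT : N ≤ T := le_stab N hT
  have hT' := stab_iff' N hT
  obtain ⟨-, -, h3⟩ := Cfsg.Agent.S4435.result p M hM N b hb T hT' hNT
  obtain ⟨B', hB', hc', hind⟩ := h3 B hB hc
  obtain ⟨hdef, -⟩ := Cfsg.Agent.S4436.result p M hM N b hb T hT' hNT B' hB' hc' B hind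
  have hb' : IsPBlock M (downIrr hNT '' b) := isPBlock_irrCongr _ M hb
  obtain ⟨Q, hQ⟩ := exists_isDefectGroup hM hb
  have hQ' : IsDefectGroup p M (downIrr hNT '' b)
      (Q.comap (Subgroup.subgroupOfEquivOfLe hNT).toMonoidHom) := isDefectGroup_irrCongr _ M p hQ
  set Q₁ : Subgroup (N.subgroupOf T) := Q.comap (Subgroup.subgroupOfEquivOfLe hNT).toMonoidHom
    with hQ₁
  have hQ₂ : (Q₁.map (N.subgroupOf T).subtype).subgroupOf (N.subgroupOf T) = Q₁ :=
    Subgroup.comap_map_eq_self_of_injective (Subgroup.subtype_injective _) _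
  obtain ⟨P', hP', hPN⟩ := knorr (N.subgroupOf T) hM hB' hb' ((covers_down_iff hNT B' b).2 hc')
    (Q := Q₁.map (N.subgroupOf T).subtype) (Subgroup.map_subtype_le _) (by rw [hQ₂]; exact hQ')
  refine ⟨P'.map T.subtype, hdef P' hP', Subgroup.map_subtype_le _, ?_⟩
  have : (P'.map T.subtype ⊓ N).subgroupOf N = Q := by
    ext n
    rw [Subgroup.mem_subgroupOf, Subgroup.mem_inf]
    have h1 : (⟨(n : G), hNT n.2⟩ : T) ∈ P' ⊓ N.subgroupOf T ↔ n ∈ Q := by
      rw [hPN]
      constructor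
      · rintro ⟨z, hz, hz2⟩
        have hz3 : (Subgroup.subgroupOfEquivOfLe hNT) z ∈ Q := hz
        have : (Subgroup.subgroupOfEquivOfLe hNT) z = n := by
          apply Subtype.ext
          exact congrArg (fun t : T => (t : G)) hz2
        rwa [this] at hz3
      · intro hn
        refine ⟨⟨⟨(n : G), hNT n.2⟩, n.2⟩, ?_, rfl⟩
        show (Subgroup.subgroupOfEquivOfLe hNT) _ ∈ Q
        convert hn
        exact Subtype.ext rfl
    rw [← h1, Subgroup.mem_inf]
    constructor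
    · rintro ⟨⟨t, ht, ht2⟩, hn⟩
      refine ⟨?_, n.2⟩
      have : t = ⟨(n : G), hNT n.2⟩ := Subtype.ext ht2
      rwa [← this]
    · rintro ⟨h2, -⟩
      exact ⟨⟨_, h2, rfl⟩, n.2⟩
  rw [this]; exact hQ

end

end Cfsg.Agent.Lib.Helper16
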