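import Mathlib
import Cfsg.Agent.Lib.Helper16.Stab
import Cfsg.Agent.Lib.Helper79.CliffordCount

/-!
# Invariant height zero characters (helper16)

If `Y ⊴ X` has `p`-power index and the block `b` of `Y` is `X`-invariant, then `b` contains an
`X`-invariant character of height zero.
-/

set_option autoImplicit false

namespace Cfsg.Agent.Lib.Helper16

open Cfsg Cfsg.Agent.Lib.Helper78 Cfsg.Agent.Lib.Helper35 Cfsg.Agent.Lib.Helper15

section

variable {X : Type*} [Group X] [Fintype X] (Y : Subgroup X) [hY : Y.Normal] [Fintype Y]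
variable {M : Ideal AlgInt} {p : ℕ} [Fact p.Prime]

theorem exists_invariant_height_zero (hM : IsPModular p M) (hidx : ∃ k : ℕ, Y.index = p ^ k)
    {b : Set (IrrCharacter Y)} (hb : IsPBlock M b) (hinv : ∀ g : X, ∀ θ ∈ b, cjIrr Y g θ ∈ b) :
    ∃ θ ∈ b, blockHeight p b (θ : Y → ℂ) = 0 ∧ ∀ g : X, cjIrr Y g θ = θ := by
  classical
  have hMp := pmod_isPrime hM
  have hp := hM.1
  obtain ⟨B, ⟨hB, hc⟩, huniq⟩ := existsUnique_covers_of_index Y hM hidx hb
  obtain ⟨P, hP⟩ := exists_isDefectGroup hM hB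
  obtain ⟨-, -, hd⟩ := fong Y hM hb hinv hB hc
    (fun B' hB' hc' => by rw [huniq B' ⟨hB', hc'⟩]) hP
  have hBne := IsPBlock.nonempty hMp hB
  have hbne := IsPBlock.nonempty hMp hb
  have hmin : minDeg p B = minDeg p b := by
    rw [blockDefect_eq, blockDefect_eq] at hd
    have h1 := factorization_index_add p Y
    have h2 := minDeg_le_card (p := p) hBne
    have h3 := minDeg_le_card (p := p) hbne
    omega
  obtain ⟨χ, hχ, hχm⟩ := exists_minDeg (p := p) hBne
  obtain ⟨ψ, hψ⟩ := Cfsg.Agent.Lib.Helper80.exists_constituent_restrict χ Y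
  have hψb : ψ ∈ b := by
    obtain ⟨g, hg⟩ := exists_cjIrr_mem_of_covers Y hMp hB hb (Covers.memLocalIdeal Y hMp hB hb hc)
      hχ hψ
    have h1 := hinv g⁻¹ _ hg
    rwa [cjIrr_cjIrr, mul_inv_cancel, cjIrr_one'] at h1
  obtain ⟨m, hm⟩ := inner_nat (char_restrict (irr_char χ.2) Y) (irr_char ψ.2)
  have hm0 : m ≠ 0 := by
    rintro rfl
    exact hψ (by rw [hm]; simp)
  have hdeg := Cfsg.Agent.Lib.Helper79.charDegree_eq_of_over Y χ ψ hm hm0
  set o := (Finset.univ.image (fun g : X => Cfsg.Agent.Lib.Helper15.cj Y g (ψ : Y → ℂ))).card with ho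
  have hoI := Cfsg.Agent.Lib.Helper79.card_orbit_mul_card_inertia Y (ψ : Y → ℂ)
  rw [← ho] at hoI
  have ho0 : o ≠ 0 := by
    intro h0
    rw [h0, zero_mul] at hoI
    exact Nat.card_pos.ne' hoI.symm
  have hψ0 : charDegree (ψ : Y → ℂ) ≠ 0 := (irr_charDegree_pos ψ).ne'
  have hfac : (charDegree (χ : X → ℂ)).factorization p =
      m.factorization p + (o.factorization p + (charDegree (ψ : Y → ℂ)).factorization p) := by
    rw [hdeg, Nat.factorization_mul hm0 (mul_ne_zero ho0 hψ0), Nat.factorization_mul ho0 hψ0]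
    rfl
  have hle := minDeg_le (p := p) hψb
  have ho1 : o.factorization p = 0 := by omega
  have hψh : (charDegree (ψ : Y → ℂ)).factorization p = minDeg p b := by omega
  obtain ⟨w, hw⟩ : Nat.card Y ∣ Nat.card (Cfsg.Agent.Lib.Helper79.inertia Y (ψ : Y → ℂ)) :=
    Subgroup.card_dvd_of_le (Cfsg.Agent.Lib.Helper79.le_inertia Y (irr_isClassFunction ψ))
  obtain ⟨k, hk⟩ := hidx
  have hodvd : o ∣ p ^ k := by
    rw [← hk]
    refine ⟨w, ?_⟩
    have h1 := Y.card_mul_index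
    rw [← hoI, hw] at h1
    have hY0 : Nat.card Y ≠ 0 := Nat.card_pos.ne'
    apply Nat.eq_of_mul_eq_mul_left (Nat.pos_of_ne_zero hY0)
    rw [h1]; ring
  obtain ⟨j, -, hj⟩ := (Nat.dvd_prime_pow hp).1 hodvd
  rw [hj, hp.factorization_pow, Finsupp.single_eq_same] at ho1
  rw [ho1, pow_zero] at hj
  rw [hj, one_mul] at hoI
  have htop : Cfsg.Agent.Lib.Helper79.inertia Y (ψ : Y → ℂ) = ⊤ :=
    Subgroup.eq_top_of_card_eq _ hoI
  refine ⟨ψ, hψb, (blockHeight_eq_zero_iff hψb).2 hψh, ?_⟩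
  intro g
  have : g ∈ Cfsg.Agent.Lib.Helper79.inertia Y (ψ : Y → ℂ) := by rw [htop]; trivial
  exact Subtype.ext this

end

end Cfsg.Agent.Lib.Helper16
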