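import Mathlib
import Cfsg.Agent.Lib.Helper16.RootDefect
import Cfsg.Agent.Lib.Helper16.Stab
import Cfsg.Agent.S0973

/-!
# Blocks of subgroups containing the centralizer of a defect group (helper16)

If `b` is a block of `H ≤ G` with defect group `P` and `C_G(P) ≤ H`, then `b^G` is defined and has a
defect group `D` with `Z(D) ≤ P ≤ D`.
-/

set_option autoImplicit false

namespace Cfsg.Agent.Lib.Helper16

open Cfsg Cfsg.Agent.Lib.Helper78 Cfsg.Agent.Lib.Helper35 Cfsg.Agent.Lib.Helper15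

section

variable {G : Type*} [Group G] [Finite G]

theorem normal_sup_centralizer_subgroupOf_normalizer (P : Subgroup G) :
    ((P ⊔ Subgroup.centralizer (P : Set G)).subgroupOf
      (Subgroup.normalizer (P : Set G))).Normal := by
  have hHN : P ⊔ Subgroup.centralizer (P : Set G) ≤ Subgroup.normalizer (P : Set G) :=
    sup_le Subgroup.le_normalizer (Subgroup.centralizer_le_normalizer _)
  rw [Subgroup.normal_subgroupOf_iff_le_normalizer hHN]
  intro n hn
  have hn' : n⁻¹ ∈ Subgroup.normalizer (P : Set G) := inv_mem hn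
  have key : ∀ m ∈ Subgroup.normalizer (P : Set G), ∀ x ∈ P ⊔ Subgroup.centralizer (P : Set G),
      m * x * m⁻¹ ∈ P ⊔ Subgroup.centralizer (P : Set G) := by
    intro m hm x hx
    have h1 : (P ⊔ Subgroup.centralizer (P : Set G)).map (MulAut.conj m).toMonoidHom ≤
        P ⊔ Subgroup.centralizer (P : Set G) := by
      rw [Subgroup.map_sup]
      apply sup_le_sup
      · rintro _ ⟨y, hy, rfl⟩
        exact (Subgroup.mem_normalizer_iff.1 hm y).1 hy
      · rintro _ ⟨y, hy, rfl⟩
        exact conj_mem_centralizer_of_mem_normalizer hm hy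
    exact h1 ⟨x, hx, rfl⟩
  rw [Subgroup.mem_normalizer_iff]
  intro x
  constructor
  · exact key n hn x
  · intro hx
    have := key n⁻¹ hn' _ hx
    simpa [mul_assoc] using this

end

section

variable {G : Type*} [Group G] [Fintype G]
variable (M : Ideal AlgInt) [hMm : M.IsMaximal] (p : ℕ) [Fact p.Prime] [CharP (FM M) p]

/-- a root of a block of a subgroup `H ≥ C_G(P)`, as a block of the subgroup `P C_G(P)` of `G` -/
theorem exists_root_rel (hM : IsPModular p M) {H P K : Subgroup G} [Fintype H] [Fintype K]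
    (hK : K = P ⊔ Subgroup.centralizer (P : Set G)) (hPH : P ≤ H)
    (hCH : Subgroup.centralizer (P : Set G) ≤ H)
    {b : Set (IrrCharacter H)} (hb : IsPBlock M b) (hbP : IsDefectGroup p M b (P.subgroupOf H)) :
    ∃ b₀ : Set (IrrCharacter K), IsPBlock M b₀ ∧ IsDefectGroup p M b₀ (P.subgroupOf K) ∧
      ∀ θ ∈ b₀, ∀ ψ ∈ b, ∀ z : Zc (FM M) G, lam M θ (resZ K z) = lam M ψ (resZ H z) := by
  classical
  have hKH : K ≤ H := hK ▸ sup_le hPH hCH
  have hcen : Subgroup.centralizer ((P.subgroupOf H : Subgroup H) : Set H) =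
      (Subgroup.centralizer (P : Set G)).subgroupOf H := by
    ext x
    rw [mem_centralizer_subgroupOf_iff hPH, Subgroup.mem_subgroupOf]
  have key : P.subgroupOf H ⊔ Subgroup.centralizer ((P.subgroupOf H : Subgroup H) : Set H) =
      K.subgroupOf H := by
    rw [hcen, hK, Subgroup.subgroupOf_sup hPH hCH]
  have h := (Cfsg.Agent.S0973.result p M hM b hb (P.subgroupOf H) hbP).1
  rw [key] at h
  obtain ⟨b', hb'D, hb'ind⟩ := h
  set e := Subgroup.subgroupOfEquivOfLe hKH with he
  refine ⟨irrCongr e.symm '' b', isPBlock_irrCongr _ M hb'ind.1, ?_, ?_⟩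
  · have h1 := isDefectGroup_irrCongr e.symm M p hb'D
    convert h1 using 1
    ext x
    rw [Subgroup.mem_subgroupOf, Subgroup.mem_comap, Subgroup.mem_subgroupOf,
      Subgroup.mem_subgroupOf]
    rfl
  · rintro _ ⟨θ', hθ', rfl⟩ ψ hψ z
    have h1 := (isInducedBlock_iff M (K.subgroupOf H) hb'ind.1 hb hθ' hψ).1 hb'ind (resZ H z)
    rw [← h1, ← lam_downIrr hKH M (irrCongr e.symm θ') z]
    congr 2

theorem nested_aux (hM : IsPModular p M) : ∀ (n : ℕ) (H P : Subgroup G) (_ : P ≤ H)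
    (_ : Subgroup.centralizer (P : Set G) ≤ H) (b : Set (IrrCharacter H)) (_ : IsPBlock M b)
    (_ : IsDefectGroup p M b (P.subgroupOf H)), Nat.card G - Nat.card P = n →
    ∃ B : Set (IrrCharacter G), IsInducedBlock M H b B ∧ ∃ D : Subgroup G,
      IsDefectGroup p M B D ∧ P ≤ D ∧ ∀ z ∈ D, (∀ d ∈ D, d * z = z * d) → z ∈ P := by
  classical
  intro n
  induction n using Nat.strong_induction_on with
  | _ n ih =>
  intro H P hPH hCH b hb hbP hn
  have hMp := pmod_isPrime hM
  have hP : IsPGroup p P := by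
    have := (IsDefectGroup.isPGroup hbP).map H.subtype
    rwa [Subgroup.map_subgroupOf_eq_of_le hPH] at this
  set K := P ⊔ Subgroup.centralizer (P : Set G) with hK
  obtain ⟨b₀, hb₀, hb₀P, hlam⟩ := exists_root_rel M p hM hK hPH hCH hb hbP
  have hPK : P ≤ K := le_sup_left
  have hCK : Subgroup.centralizer (P : Set G) ≤ K := le_sup_right
  have hKN : K ≤ Subgroup.normalizer (P : Set G) :=
    sup_le Subgroup.le_normalizer (Subgroup.centralizer_le_normalizer _)
  obtain ⟨θ, hθ⟩ := block_nonempty M hb₀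
  obtain ⟨ψ, hψ⟩ := block_nonempty M hb
  obtain ⟨χ, hχ⟩ := exists_lam_eq_lam_resZ M p hP hPK hCK hKN θ
  set B := blockOf M (χ : G → ℂ) with hBdef
  have hB : IsPBlock M B := ⟨χ, rfl⟩
  have hχB : χ ∈ B := mem_blockOf_self M χ
  have hindH : IsInducedBlock M H b B :=
    (isInducedBlock_iff M H hb hB hψ hχB).2 (fun z => by rw [← hlam θ hθ ψ hψ, hχ])
  refine ⟨B, hindH, ?_⟩
  set N := Subgroup.normalizer (P : Set G) with hN
  have hPN : P ≤ N := Subgroup.le_normalizer
  haveI : (P.subgroupOf N).Normal := (Subgroup.normal_subgroupOf_iff_le_normalizer hPN).2 le_rfl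
  haveI hnorm : (K.subgroupOf N).Normal := normal_sup_centralizer_subgroupOf_normalizer P
  have hP' : IsPGroup p (P.subgroupOf N) := hP.comap_subtype
  have hPK' : P.subgroupOf N ≤ K.subgroupOf N := fun x hx => hPK hx
  have hCK' : Subgroup.centralizer ((P.subgroupOf N : Subgroup N) : Set N) ≤ K.subgroupOf N :=
    fun x hx => hCK ((mem_centralizer_subgroupOf_iff hPN x).1 hx)
  have hKN' : K.subgroupOf N ≤ Subgroup.normalizer ((P.subgroupOf N : Subgroup N) : Set N) := by
    rw [Subgroup.normalizer_eq_top]; exact le_top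
  obtain ⟨ζ, hζ⟩ := exists_lam_eq_lam_resZ M p hP' hPK' hCK' hKN' (downIrr hKN θ)
  set β := blockOf M (ζ : N → ℂ) with hβdef
  have hβ : IsPBlock M β := ⟨ζ, rfl⟩
  have hb₀' : IsPBlock M (downIrr hKN '' b₀) := isPBlock_irrCongr _ M hb₀
  have h1 : IsInducedBlock M N β B :=
    (isInducedBlock_iff M N hβ hB (mem_blockOf_self M ζ) hχB).2 (fun z => by
      rw [← hζ, lam_downIrr, hχ])
  have h2 : IsInducedBlock M (K.subgroupOf N) (downIrr hKN '' b₀) β :=
    (isInducedBlock_iff M (K.subgroupOf N) hb₀' hβ ⟨θ, hθ, rfl⟩ (mem_blockOf_self M ζ)).2 hζ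
  have hc : Covers (K.subgroupOf N) β (downIrr hKN '' b₀) := covers_of_isInducedBlock _ hMp h2
  have hQ' : IsDefectGroup p M (downIrr hKN '' b₀)
      ((P.subgroupOf K).comap (Subgroup.subgroupOfEquivOfLe hKN).toMonoidHom) :=
    isDefectGroup_irrCongr _ M p hb₀P
  set Q₁ : Subgroup (K.subgroupOf N) :=
    (P.subgroupOf K).comap (Subgroup.subgroupOfEquivOfLe hKN).toMonoidHom with hQ₁
  have hQ₂ : (Q₁.map (K.subgroupOf N).subtype).subgroupOf (K.subgroupOf N) = Q₁ :=
    Subgroup.comap_map_eq_self_of_injective (Subgroup.subtype_injective _) _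
  obtain ⟨D₁', hD₁', hDK⟩ := knorr (K.subgroupOf N) hM hβ hb₀' hc
    (Q := Q₁.map (K.subgroupOf N).subtype) (Subgroup.map_subtype_le _) (by rw [hQ₂]; exact hQ')
  set D₁ : Subgroup G := D₁'.map N.subtype with hD₁
  have hD₁N : D₁ ≤ N := Subgroup.map_subtype_le _
  have hD₁s : D₁.subgroupOf N = D₁' :=
    Subgroup.comap_map_eq_self_of_injective (Subgroup.subtype_injective _) _
  have hinf : D₁ ⊓ K = P := by
    ext x
    rw [Subgroup.mem_inf]
    constructor
    · rintro ⟨⟨t, ht, rfl⟩, hxK⟩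
      have h3 : t ∈ D₁' ⊓ K.subgroupOf N := ⟨ht, hxK⟩
      rw [hDK] at h3
      obtain ⟨w, hw, rfl⟩ := h3
      exact hw
    · intro hx
      have h3 : (⟨x, hPN hx⟩ : N) ∈ D₁' ⊓ K.subgroupOf N := by
        rw [hDK]
        exact ⟨⟨⟨x, hPN hx⟩, hPK hx⟩, hx, rfl⟩
      exact ⟨⟨_, h3.1, rfl⟩, hPK hx⟩
  have hPD₁ : P ≤ D₁ := by rw [← hinf]; exact inf_le_left
  by_cases hcase : D₁ = P
  · refine ⟨P, ?_, le_rfl, fun z hz _ => hz⟩
    apply isDefectGroup_of_induced M p N hM hP le_rfl le_rfl h1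
    rw [← hcase, hD₁s]; exact hD₁'
  · have hlt : Nat.card P < Nat.card D₁ := by
      rcases (Nat.card_le_card_of_injective _ (Subgroup.inclusion_injective hPD₁)).lt_or_eq with h | h
      · exact h
      · exact absurd (Subgroup.eq_of_le_of_card_ge hPD₁ h.ge).symm hcase
    have hle : Nat.card D₁ ≤ Nat.card G := Subgroup.card_le_card_group D₁
    have hCD₁ : Subgroup.centralizer (D₁ : Set G) ≤ N :=
      (Subgroup.centralizer_le hPD₁).trans (Subgroup.centralizer_le_normalizer _)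
    obtain ⟨B', hB'ind, D, hD, hD₁D, hZ⟩ := ih (Nat.card G - Nat.card D₁) (by omega) N D₁ hD₁N hCD₁
      β hβ (by rw [hD₁s]; exact hD₁') rfl
    have hBB' : B' = B := induced_unique M N hB'ind h1
    subst hBB'
    refine ⟨D, hD, hPD₁.trans hD₁D, ?_⟩
    intro z hz hzc
    have hz1 : z ∈ D₁ := hZ z hz hzc
    have hz2 : z ∈ K := by
      apply hCK
      rw [Subgroup.mem_centralizer_iff]
      intro d hd
      exact hzc d (hD₁D (hPD₁ hd))
    rw [← hinf]
    exact ⟨hz1, hz2⟩

end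

end Cfsg.Agent.Lib.Helper16
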