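import Mathlib
import Cfsg.Agent.Lib.Helper16.CoverUnique

/-!
# The block over an invariant character of a normal `p'`-subgroup (Fong) (helper16)
-/

set_option autoImplicit false

namespace Cfsg.Agent.Lib.Helper16

open Cfsg Cfsg.Agent.Lib.Helper78 Cfsg.Agent.Lib.Helper35 Cfsg.Agent.Lib.Helper15

section

variable {G : Type*} [Group G] [Fintype G]

/-- a constituent of `χ_N` lies under a constituent of `χ_K`, `N ≤ K` -/
theorem exists_intermediate {N K : Subgroup G} [Fintype N] [Fintype K] (hNK : N ≤ K)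
    (χ : IrrCharacter G) (θ : IrrCharacter N)
    (h : classInner (fun n : N => (χ : G → ℂ) n) (θ : N → ℂ) ≠ 0) :
    ∃ ψ : IrrCharacter K, classInner (fun k : K => (χ : G → ℂ) k) (ψ : K → ℂ) ≠ 0 ∧
      classInner (fun n : N => (ψ : K → ℂ) ⟨(n : G), hNK n.2⟩) (θ : N → ℂ) ≠ 0 := by
  classical
  by_contra hcon
  push Not at hcon
  apply h
  have hres : IsCharacter K (fun x : K => (χ : G → ℂ) x) :=
    Helper74.IsCharacter.restrict (Helper74.IrrCharacter.isCharacter χ) K
  have h1 := Helper74.IsCharacter.eq_sum_classInner hres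
  have h2 : (fun n : N => (χ : G → ℂ) n) = ∑ ψ : IrrCharacter K,
      classInner (fun x : K => (χ : G → ℂ) x) (ψ : K → ℂ) •
        (fun n : N => (ψ : K → ℂ) ⟨(n : G), hNK n.2⟩) := by
    funext n
    have := congrFun h1 ⟨(n : G), hNK n.2⟩
    simp only [Finset.sum_apply, Pi.smul_apply] at this ⊢
    exact this
  rw [h2, classInner_sum_left]
  refine Finset.sum_eq_zero fun ψ _ => ?_
  rw [classInner_smul_left]
  by_cases h0 : classInner (fun x : K => (χ : G → ℂ) x) (ψ : K → ℂ) = 0
  · rw [h0, zero_mul]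
  · rw [hcon ψ h0, mul_zero]

variable {M : Ideal AlgInt} {p : ℕ} [Fact p.Prime]

/-- **Fong.** Let `N ≤ K` be normal subgroups of `G`, `N` a `p'`-group, `K / N` a `p`-group, such
that the centralizers of the Sylow `p`-subgroups of `K` lie in `K`.  Then the irreducible characters
over an invariant irreducible character of `N` form a block of full defect. -/
theorem block_over_invariant (hM : IsPModular p M) (N K : Subgroup G) [hN : N.Normal]
    [hK : K.Normal] [Fintype N] [Fintype K] (hNK : N ≤ K) (hNp : ¬ p ∣ Nat.card N)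
    (hidx : ∃ k : ℕ, (N.subgroupOf K).index = p ^ k)
    (hCK : ∀ Q : Subgroup K, Nat.card Q = p ^ (Nat.card K).factorization p →
      Subgroup.centralizer ((Q.map K.subtype : Subgroup G) : Set G) ≤ K)
    (θ : IrrCharacter N) (hinv : ∀ g : G, cjIrr N g θ = θ) :
    ∃ B : Set (IrrCharacter G), IsPBlock M B ∧
      (∀ χ : IrrCharacter G, χ ∈ B ↔ classInner (fun n : N => (χ : G → ℂ) n) (θ : N → ℂ) ≠ 0) ∧
      blockDefect p B = (Nat.card G).factorization p := by
  classical
  haveI : M.IsMaximal := hM.2.1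
  have hMp := pmod_isPrime hM
  have hp := hM.1
  have hνN : (Nat.card N).factorization p = 0 := Nat.factorization_eq_zero_of_not_dvd hNp
  have hb₀eq : blockOf M (θ : N → ℂ) = {θ} := blockOf_eq_singleton_of_not_dvd hM hNp θ
  have hb₀ : IsPBlock M ({θ} : Set (IrrCharacter N)) := ⟨θ, hb₀eq.symm⟩
  have hinv₀ : ∀ g : G, ∀ θ' ∈ ({θ} : Set (IrrCharacter N)), cjIrr N g θ' ∈
      ({θ} : Set (IrrCharacter N)) := by
    intro g θ' hθ'
    rw [Set.mem_singleton_iff] at hθ' ⊢
    rw [hθ', hinv]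
  have hd₀ : blockDefect p ({θ} : Set (IrrCharacter N)) = 0 := by
    show (Nat.card N).factorization p - _ = 0
    rw [hνN, Nat.zero_sub]
  -- the block of `K`
  have hb₀' : IsPBlock M (downIrr hNK '' ({θ} : Set (IrrCharacter N))) := isPBlock_irrCongr _ M hb₀
  obtain ⟨bK, ⟨hbK, hcK⟩, huK⟩ := existsUnique_covers_of_index (N.subgroupOf K) hM hidx hb₀'
  obtain ⟨Q, hQ⟩ := exists_isDefectGroup hM hbK
  obtain ⟨-, -, hdK⟩ := fong (N.subgroupOf K) hM hb₀'
    (by
      rintro t _ ⟨θ', hθ', rfl⟩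
      rw [cjIrr_downIrr]
      exact ⟨_, hinv₀ t θ' hθ', rfl⟩)
    hbK hcK (fun β' h1 h2 => by rw [huK β' ⟨h1, h2⟩]) hQ
  have hd₀' : blockDefect p (downIrr hNK '' ({θ} : Set (IrrCharacter N))) = 0 := by
    rw [← hd₀]; exact blockDefect_irrCongr _ p _
  have hνK : (N.subgroupOf K).index.factorization p = (Nat.card K).factorization p := by
    have h1 := (N.subgroupOf K).index_mul_card
    rw [card_subgroupOf_of_le hNK] at h1
    rw [← h1, Nat.factorization_mul Subgroup.index_ne_zero_of_finite Nat.card_pos.ne',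
      Finsupp.add_apply, hνN, add_zero]
  have hQcard : Nat.card Q = p ^ (Nat.card K).factorization p := by
    rw [card_of_isDefectGroup hM hbK hQ, hdK, hd₀', zero_add, hνK]
  have hC := hCK Q hQcard
  -- blocks of `G` covering `θ` cover `bK`
  have hcov : ∀ B : Set (IrrCharacter G), IsPBlock M B →
      Covers N B ({θ} : Set (IrrCharacter N)) → Covers K B bK := by
    rintro B hB ⟨χ, hχ, θ', hθ', h⟩
    rw [Set.mem_singleton_iff] at hθ'
    subst hθ'
    obtain ⟨ψ, hψ1, hψ2⟩ := exists_intermediate hNK χ θ' h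
    have h3 : Covers (N.subgroupOf K) (blockOf M (ψ : K → ℂ))
        (downIrr hNK '' ({θ'} : Set (IrrCharacter N))) :=
      (covers_down_iff hNK _ _).2 ⟨ψ, Helper78.mem_blockOf_self hMp ψ, θ', rfl, hψ2⟩
    have h4 := huK _ ⟨⟨ψ, rfl⟩, h3⟩
    exact ⟨χ, hχ, ψ, by rw [← h4]; exact Helper78.mem_blockOf_self hMp ψ, hψ1⟩
  obtain ⟨χ₀, hχ₀⟩ := exists_over N θ
  have hB : IsPBlock M (blockOf M (χ₀ : G → ℂ)) := ⟨χ₀, rfl⟩
  have hc : Covers N (blockOf M (χ₀ : G → ℂ)) ({θ} : Set (IrrCharacter N)) :=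
    ⟨χ₀, Helper78.mem_blockOf_self hMp χ₀, θ, rfl, hχ₀⟩
  have hu : ∀ B' : Set (IrrCharacter G), IsPBlock M B' →
      Covers N B' ({θ} : Set (IrrCharacter N)) → B' = blockOf M (χ₀ : G → ℂ) := by
    intro B' hB' hc'
    exact covers_unique_of_centralizer_le K hM hbK hQ hC hB' (hcov B' hB' hc') hB (hcov _ hB hc)
  have hover := overSet_eq_of_unique N hMp hb₀ hB hc hu
  refine ⟨_, hB, fun χ => ?_, ?_⟩
  · rw [← hover]
    constructor
    · rintro ⟨θ', hθ', h⟩
      rw [Set.mem_singleton_iff] at hθ'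
      rwa [hθ'] at h
    · intro h
      exact ⟨θ, rfl, h⟩
  · obtain ⟨P, hP⟩ := exists_isDefectGroup hM hB
    obtain ⟨-, -, hd⟩ := fong N hM hb₀ hinv₀ hB hc (fun B' h1 h2 => by rw [hu B' h1 h2]) hP
    rw [hd, hd₀, zero_add]
    have h1 := N.index_mul_card
    rw [← h1, Nat.factorization_mul Subgroup.index_ne_zero_of_finite Nat.card_pos.ne',
      Finsupp.add_apply, hνN, add_zero]

/-- the defect groups of a block of full defect are the Sylow subgroups -/
theorem isDefectGroup_sylow_of_full_defect (hM : IsPModular p M) {B : Set (IrrCharacter G)}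
    (hB : IsPBlock M B) (hd : blockDefect p B = (Nat.card G).factorization p) :
    (∀ P : Sylow p G, IsDefectGroup p M B (P : Subgroup G)) ∧
      ∀ D : Subgroup G, IsDefectGroup p M B D → ∃ P : Sylow p G, D = (P : Subgroup G) := by
  have key : ∀ D : Subgroup G, IsDefectGroup p M B D →
      Nat.card D = p ^ (Nat.card (⊤ : Subgroup G)).factorization p := by
    intro D hD
    rw [card_of_isDefectGroup hM hB hD, hd, Subgroup.card_top]
  constructor
  · intro P
    obtain ⟨D, hD⟩ := exists_isDefectGroup hM hB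
    obtain ⟨u, -, hu⟩ := exists_conj_of_card_eq (p := p) ⊤ D (P : Subgroup G) le_top le_top
      (key D hD) (by rw [Subgroup.card_top]; exact P.card_eq_multiplicity)
    rw [← hu]
    exact IsDefectGroup.conj hD u
  · intro D hD
    have h1 := key D hD
    rw [Subgroup.card_top] at h1
    exact ⟨Sylow.ofCard D h1, rfl⟩

end

end Cfsg.Agent.Lib.Helper16
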