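import Cfsg.Agent.Lib.Helper41.Dickson.Packages
import Cfsg.Agent.Lib.Helper16.ReeTorA

/-!
# Centralizers in `PSL₂(q)` needed for the torus of order `(q+1)/4`
-/

set_option autoImplicit false

namespace Cfsg.Agent.Lib.Helper16.ReeTor

open Subgroup

theorem dihedral_facts {L : Type*} [Group L] (N : Subgroup L) (k : ℕ) (hk : 3 ≤ k)
    (e : N ≃* DihedralGroup k) (t : L) (htN : t ∈ N) (hto : orderOf t = k) :
    (∀ n ∈ N, n * t * n⁻¹ = t ∨ n * t * n⁻¹ = t⁻¹) ∧ (∃ n ∈ N, n * t * n⁻¹ = t⁻¹) ∧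
      Nat.card N = 2 * k := by
  have ho : orderOf (e ⟨t, htN⟩) = k := by
    rw [e.orderOf_eq, Subgroup.orderOf_mk, hto]
  obtain ⟨i, hi⟩ : ∃ i, e ⟨t, htN⟩ = DihedralGroup.r i := by
    rcases h : e ⟨t, htN⟩ with i | i
    · exact ⟨i, rfl⟩
    · rw [h, DihedralGroup.orderOf_sr] at ho
      omega
  have key : ∀ n : N, (∃ l, e n = DihedralGroup.r l) → n.1 * t * n.1⁻¹ = t := by
    rintro n ⟨l, hl⟩
    have h1 : e (n * ⟨t, htN⟩ * n⁻¹) = e ⟨t, htN⟩ := by
      rw [map_mul, map_mul, map_inv, hl, hi]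
      simp
    exact congrArg Subtype.val (e.injective h1)
  have key2 : ∀ n : N, (∃ l, e n = DihedralGroup.sr l) → n.1 * t * n.1⁻¹ = t⁻¹ := by
    rintro n ⟨l, hl⟩
    have h1 : e (n * ⟨t, htN⟩ * n⁻¹) = e (⟨t, htN⟩⁻¹) := by
      rw [map_mul, map_mul, map_inv, map_inv, hl, hi]
      simp
    exact congrArg Subtype.val (e.injective h1)
  refine ⟨?_, ?_, ?_⟩
  · intro n hn
    rcases h : e ⟨n, hn⟩ with l | l
    · exact Or.inl (key ⟨n, hn⟩ ⟨l, h⟩)
    · exact Or.inr (key2 ⟨n, hn⟩ ⟨l, h⟩)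
  · exact ⟨(e.symm (DihedralGroup.sr 0)).1, (e.symm (DihedralGroup.sr 0)).2,
      key2 _ ⟨0, by simp⟩⟩
  · rw [Nat.card_congr e.toEquiv, DihedralGroup.nat_card]

variable {F : Type*} [Field F] [Fintype F] (p : ℕ) [Fact p.Prime] [CharP F p]

local notation "L" => Matrix.ProjectiveSpecialLinearGroup (Fin 2) F

theorem card_cent_odd (hq : Nat.gcd 2 (Fintype.card F - 1) = 2) {k1 : ℕ} (hk1 : Odd k1)
    (hp : k1.Coprime p) (hm : k1.Coprime (Fintype.card F - 1)) {l : L} (hl1 : l ≠ 1)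
    (hl : l ^ k1 = 1) : 2 * Nat.card (centralizer ({l} : Set L)) = Fintype.card F + 1 := by
  have hlo : orderOf l ∣ k1 := orderOf_dvd_of_pow_eq_one hl
  have hlo1 : orderOf l ≠ 1 := fun h => hl1 (orderOf_eq_one_iff.1 h)
  have hlp : l ^ p ≠ 1 := by
    intro h
    exact hlo1 (Nat.eq_one_of_dvd_coprimes hp hlo (orderOf_dvd_of_pow_eq_one h))
  obtain ⟨N, k, t, hk, ⟨e⟩, htN, hto, hlt, hN⟩ := Helper41.Dickson.torus_package p l hlp
  rw [hq] at hk
  have hlk : orderOf l ∣ k := hto ▸ orderOf_dvd_of_mem_zpowers hlt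
  rcases hk with hk | hk
  · exfalso
    exact hlo1 (Nat.eq_one_of_dvd_coprimes hm hlo (hk ▸ (hlk.trans (dvd_mul_left _ _))))
  have hk0 : 0 < k := by omega
  have hodd : Odd (orderOf l) := hk1.of_dvd_nat hlo
  have hl3 : 3 ≤ orderOf l := by
    have h0 := orderOf_pos l
    obtain ⟨c, hc⟩ := hodd
    omega
  have hk3 : 3 ≤ k := hl3.trans (Nat.le_of_dvd hk0 hlk)
  obtain ⟨-, ⟨n, hnN, hn⟩, hcard⟩ := dihedral_facts N k hk3 e t htN hto
  have hle1 : zpowers t ≤ centralizer ({l} : Set L) := by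
    intro y hy
    obtain ⟨r, rfl⟩ := mem_zpowers_iff.1 hy
    obtain ⟨r', rfl⟩ := mem_zpowers_iff.1 hlt
    exact mem_cent_single.2 (by rw [← zpow_add, ← zpow_add, add_comm])
  have hle2 : centralizer ({l} : Set L) ≤ N := by
    intro g hg
    refine hN g l hlt hl1 ?_
    have h1 : l * g = g * l := mem_cent_single.1 hg
    rw [← h1, mul_inv_cancel_right]
    exact hlt
  have hne : Nat.card (centralizer ({l} : Set L)) ≠ 2 * k := by
    intro h
    have h1 : centralizer ({l} : Set L) = N :=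
      Subgroup.eq_of_le_of_card_ge hle2 (by rw [h, hcard])
    have h2 : n ∈ centralizer ({l} : Set L) := h1 ▸ hnN
    have h3 : l * n = n * l := mem_cent_single.1 h2
    have h4 : n * l * n⁻¹ = l⁻¹ := by
      obtain ⟨r', hr'⟩ := mem_zpowers_iff.1 hlt
      rw [← hr', ← conj_zpow, hn, inv_zpow]
    rw [← h3, mul_inv_cancel_right] at h4
    have h5 : l ^ 2 = 1 := by
      rw [pow_two]
      nth_rewrite 1 [h4]
      exact inv_mul_cancel l
    have h6 : orderOf l ∣ 2 := orderOf_dvd_of_pow_eq_one h5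
    have := Nat.le_of_dvd (by norm_num) h6
    omega
  have hd1 : k ∣ Nat.card (centralizer ({l} : Set L)) := by
    have := Subgroup.card_dvd_of_le hle1
    rwa [Nat.card_zpowers, hto] at this
  have hd2 : Nat.card (centralizer ({l} : Set L)) ∣ 2 * k := hcard ▸ Subgroup.card_dvd_of_le hle2
  obtain ⟨d, hd⟩ := hd1
  rw [hd, mul_comm 2 k] at hd2
  have hd3 : d ∣ 2 := (Nat.mul_dvd_mul_iff_left hk0).1 hd2
  have hd4 : d = 1 ∨ d = 2 := (Nat.dvd_prime Nat.prime_two).1 hd3
  rcases hd4 with rfl | rfl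
  · rw [hd, mul_one, hk]
  · exact absurd (by rw [hd, mul_comm]) hne

theorem card_cent_invol (hq : Nat.gcd 2 (Fintype.card F - 1) = 2) (hp2 : p ≠ 2) {k1 : ℕ}
    (hk1 : 2 ≤ k1) {t : L} (hto : orderOf t = 2 * k1) (hcard : 2 * orderOf t = Fintype.card F + 1) :
    Nat.card (centralizer ({t ^ k1} : Set L)) = Fintype.card F + 1 := by
  have htp : t ^ p ≠ 1 := by
    intro h
    have h1 : 2 ∣ p := (dvd_mul_right 2 k1).trans (hto ▸ orderOf_dvd_of_pow_eq_one h)
    exact hp2 ((Nat.prime_dvd_prime_iff_eq Nat.prime_two (Fact.out : p.Prime)).1 h1).symm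
  obtain ⟨N, k, t', hk, ⟨e⟩, htN, hto', htt, hN⟩ := Helper41.Dickson.torus_package p t htp
  rw [hq] at hk
  have htk : orderOf t ∣ k := hto' ▸ orderOf_dvd_of_mem_zpowers htt
  have hq2 : 2 ≤ Fintype.card F := Fintype.one_lt_card
  have hk0 : 0 < k := by omega
  have hle := Nat.le_of_dvd hk0 htk
  have hk' : 2 * k = Fintype.card F + 1 := by
    rcases hk with hk | hk
    · omega
    · exact hk
  have hk3 : 3 ≤ k := by omega
  obtain ⟨hall, -, hcardN⟩ := dihedral_facts N k hk3 e t' htN hto'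
  have hj : t ^ k1 ∈ zpowers t' := (zpowers t').pow_mem htt k1
  have hj1 : t ^ k1 ≠ 1 := pow_ne_one_of_lt_orderOf (by omega) (by omega)
  have hj2 : t ^ k1 * t ^ k1 = 1 := by
    rw [← pow_add, ← two_mul, ← hto, pow_orderOf_eq_one]
  have heq : centralizer ({t ^ k1} : Set L) = N := by
    apply le_antisymm
    · intro g hg
      refine hN g _ hj hj1 ?_
      have h1 : t ^ k1 * g = g * t ^ k1 := mem_cent_single.1 hg
      rw [← h1, mul_inv_cancel_right]
      exact hj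
    · intro n hn
      refine mem_cent_single.2 ?_
      obtain ⟨r, hr⟩ := mem_zpowers_iff.1 hj
      have h1 : n * t ^ k1 * n⁻¹ = t ^ k1 := by
        rcases hall n hn with h | h
        · rw [← hr, ← conj_zpow, h]
        · rw [← hr, ← conj_zpow, h, inv_zpow, hr, inv_eq_self_of_sq hj2]
      exact (mul_inv_eq_iff_eq_mul.1 h1).symm
  rw [heq, hcardN, hk']

/-- transfer of centralizers through an isomorphism `C(a) ≃ Z × L` -/
theorem card_cent_transfer {G M Z : Type*} [Group G] [Group M] [CommGroup Z] (a : G)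
    (e : centralizer ({a} : Set G) ≃* Z × M) (x : centralizer ({a} : Set G)) :
    Nat.card (centralizer ({a, x.1} : Set G)) =
      Nat.card Z * Nat.card (centralizer ({(e x).2} : Set M)) := by
  rw [← Nat.card_prod]
  refine Nat.card_congr
    { toFun := fun y => ((e ⟨y.1, mem_cent_single.2 (mem_cent_pair.1 y.2).1⟩).1,
        ⟨(e ⟨y.1, mem_cent_single.2 (mem_cent_pair.1 y.2).1⟩).2, ?_⟩)
      invFun := fun w => ⟨(e.symm (w.1, w.2.1)).1, ?_⟩
      left_inv := fun y => by simp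
      right_inv := fun w => by simp }
  · refine mem_cent_single.2 ?_
    have h1 : x * ⟨y.1, mem_cent_single.2 (mem_cent_pair.1 y.2).1⟩ =
        ⟨y.1, mem_cent_single.2 (mem_cent_pair.1 y.2).1⟩ * x := Subtype.ext (mem_cent_pair.1 y.2).2
    have h2 := congrArg (fun z => (e z).2) h1
    simpa using h2
  · refine mem_cent_pair.2 ⟨mem_cent_single.1 (e.symm (w.1, w.2.1)).2, ?_⟩
    have h1 : (e x).2 * w.2.1 = w.2.1 * (e x).2 := mem_cent_single.1 w.2.2
    have h2 : e x * (w.1, w.2.1) = (w.1, w.2.1) * e x := by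
      ext
      · simp [mul_comm]
      · simpa using h1
    have h3 : x * e.symm (w.1, w.2.1) = e.symm (w.1, w.2.1) * x := by
      apply e.injective
      rw [map_mul, map_mul, e.apply_symm_apply, h2]
    exact congrArg Subtype.val h3

end Cfsg.Agent.Lib.Helper16.ReeTor
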